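-- Team project OTSM (S5987): final assembly from the level-0 packages (helper31); mirrors
-- helper99's OTSP assembly.
import Mathlib
import Cfsg.Agent.Lib.Helper31.OTSM.Defs

set_option autoImplicit false
open scoped MatrixGroups
open Matrix

namespace Cfsg.Agent.Lib.Helper31.OTSM

open Cfsg.Agent.Lib.Helper23.OHyp Cfsg.Agent.Lib.Helper64.OParM Cfsg.Agent.Lib.Helper99.OTSP

universe u

theorem prime_dvd_card_iffM {F : Type u} [Field F] [Fintype F] {p : ℕ} [Fact p.Prime] [CharP F p]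
    (r : ℕ) (hr : r.Prime) : r ∣ Fintype.card F ↔ r = p := by
  obtain ⟨n, hp, hc⟩ := FiniteField.card F p
  rw [hc]
  constructor
  · intro h
    exact (Nat.prime_dvd_prime_iff_eq hr hp).mp (hr.dvd_of_dvd_pow h)
  · rintro rfl
    exact dvd_pow_self _ n.ne_zero

theorem fixTS_iffM {F : Type u} [Field F] {ι : Type} [Fintype ι] [DecidableEq ι]
    (Q : (ι → F) → F) (m : ℕ) (X : Matrix ι ι F) :
    (∃ W : Submodule F (ι → F), (Module.finrank F ↥W = m ∧ Cfsg.Geo.IsTotallySingularQuad Q W) ∧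
      W.map (Matrix.toLin' X) ≤ W) ↔ FixTS Q m X := by
  constructor
  · rintro ⟨W, ⟨h1, h2⟩, h3⟩
    exact ⟨W, h1, h2, h3⟩
  · rintro ⟨W, h1, h2, h3⟩
    exact ⟨W, ⟨h1, h2⟩, h3⟩

theorem s5987_of (hTwo : TwoMinus.{u}) (hPCnt : PkgPCntM.{u}) (hDvd : PkgDvdM.{u}) (hOrd : PkgOrd)
    (hRed : PkgRedM.{u}) (hOdd : PkgAllOddM.{u}) (hEven : PkgAllEvM.{u})
    (hNumOd1 : PkgNumOd1M) (hNumOd2 : PkgNumOd2M) (hNumEv1 : PkgNumEv1M) (hNumEv2 : PkgNumEv2M)
    {F : Type u} [Field F] [Fintype F] {p : ℕ} [Fact p.Prime] [CharP F p] {q : ℕ} (hq : Fintype.card F = q)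
    (d m : ℕ) (hd : 4 ≤ d) (hm : 1 ≤ m) (hmd : m + 1 ≤ d) (a b : F) (hab : ∀ x y : F, x ^ 2 + a * x * y + b * y ^ 2 = 0 → x = 0 ∧ y = 0)
    (r : ℕ) [Fact r.Prime]
    (hrΩ : r ∣ Nat.card {W : Submodule F ((Fin (d - 1) ⊕ Fin (d - 1)) ⊕ Fin 2 → F) // Module.finrank F ↥W = m ∧ Cfsg.Geo.IsTotallySingularQuad (Cfsg.quadFormMinus (d - 1) F a b) W})
    (i c : ℕ) (hi : i = orderOf (q : ZMod r)) (hc : c = if Even i then i else 2 * i) :
    (∀ x : GL ((Fin (d - 1) ⊕ Fin (d - 1)) ⊕ Fin 2) F, x ∈ Cfsg.Geo.omegaGL (Cfsg.quadFormMinus (d - 1) F a b) →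
      (∃ z : F, ((x ^ r : GL ((Fin (d - 1) ⊕ Fin (d - 1)) ⊕ Fin 2) F) : Matrix ((Fin (d - 1) ⊕ Fin (d - 1)) ⊕ Fin 2) ((Fin (d - 1) ⊕ Fin (d - 1)) ⊕ Fin 2) F) = z • (1 : Matrix ((Fin (d - 1) ⊕ Fin (d - 1)) ⊕ Fin 2) ((Fin (d - 1) ⊕ Fin (d - 1)) ⊕ Fin 2) F)) →
      (∀ z : F, (x : Matrix ((Fin (d - 1) ⊕ Fin (d - 1)) ⊕ Fin 2) ((Fin (d - 1) ⊕ Fin (d - 1)) ⊕ Fin 2) F) ≠ z • (1 : Matrix ((Fin (d - 1) ⊕ Fin (d - 1)) ⊕ Fin 2) ((Fin (d - 1) ⊕ Fin (d - 1)) ⊕ Fin 2) F)) →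
      ∃ W : Submodule F ((Fin (d - 1) ⊕ Fin (d - 1)) ⊕ Fin 2 → F), (Module.finrank F ↥W = m ∧ Cfsg.Geo.IsTotallySingularQuad (Cfsg.quadFormMinus (d - 1) F a b) W) ∧ W.map (Matrix.toLin' (x : Matrix ((Fin (d - 1) ⊕ Fin (d - 1)) ⊕ Fin 2) ((Fin (d - 1) ⊕ Fin (d - 1)) ⊕ Fin 2) F)) ≤ W) ↔
    ((r = 2 ∧ p ≠ 2 ∧ (Even d ∨ Even m ∨ q % 8 ≠ 7)) ∨
     (r ≠ p ∧ 2 < r ∧ Odd i ∧ i ≤ m ∧ ((2 * d) % c = 0 ∨ 2 * (m % i) < (2 * d) % c)) ∨
     (r ≠ p ∧ 2 < r ∧ Even i ∧ i ≤ m ∧ (r - 1) / i + 2 * (m / i) ≤ (2 * d) / i ∧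
       ((2 * (m % i) ≤ i ∧ (2 * d) % c = 0 ∧ Even ((2 * d) / i) ∧ (r - 1) / i + 2 * (m / i) < (2 * d) / i) ∨
        (2 * (m % i) ≤ (2 * d) % c ∧ Odd ((2 * d) / i)) ∨
        (2 * (m % i) < (2 * d) % c ∧ Even ((2 * d) / i))))) := by
  have hrp : r.Prime := Fact.out
  have hpp : p.Prime := Fact.out
  subst hq
  generalize hk : d - 1 = k at hrΩ ⊢
  have hdk : d = k + 1 := by omega
  subst hdk
  have hk3 : 3 ≤ k := by omega
  have hmk : m ≤ k := by omega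
  -- the case r = p
  by_cases hrp' : r = p
  · subst hrp'
    exact absurd hrΩ (hPCnt F r k m a b hab hmk)
  have hndvd : ¬ r ∣ Fintype.card F := fun h => hrp' ((prime_dvd_card_iffM r hrp).mp h)
  by_cases hr2 : r = 2
  · -- r = 2, p odd
    subst hr2
    have hp2 : p ≠ 2 := fun h => hrp' h.symm
    have hodd : Odd (Fintype.card F) := by
      rcases Nat.even_or_odd (Fintype.card F) with he | ho
      · exact absurd (even_iff_two_dvd.mp he) hndvd
      · exact ho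
    have h := hTwo F k m a b hodd hab hm hmk
    constructor
    · intro hL
      exact Or.inl ⟨rfl, hp2, h.mp hL⟩
    · rintro (⟨-, -, h1⟩ | ⟨-, h2, -⟩ | ⟨-, h2, -⟩)
      · exact h.mpr h1
      · exact absurd h2 (lt_irrefl 2)
      · exact absurd h2 (lt_irrefl 2)
  -- r odd, r ≠ p
  have hr3 : 2 < r := lt_of_le_of_ne hrp.two_le (Ne.symm hr2)
  have hi' : i = ordI (Fintype.card F) r := hi
  obtain ⟨hi1, hidvd, ho1, ho2⟩ := hOrd (Fintype.card F) r hrp hr2 hndvd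
  rw [← hi'] at hi1 hidvd ho1 ho2
  have ht1 : 1 ≤ (r - 1) / i := by
    obtain ⟨u, hu⟩ := hidvd
    have hu0 : u ≠ 0 := by
      rintro rfl
      omega
    rw [hu, Nat.mul_div_cancel_left _ (by omega : 0 < i)]
    omega
  obtain ⟨j0, hj0, hdv⟩ := hDvd F k m r a b hab hrp hmk hrΩ
  have hred := hRed F k m r a b hab hrp hr2 hk3
  have hL : (∀ x : GL (MI k) F, x ∈ Cfsg.Geo.omegaGL (Cfsg.quadFormMinus k F a b) →
      (∃ z : F, ((x ^ r : GL (MI k) F) : Matrix (MI k) (MI k) F) =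
        z • (1 : Matrix (MI k) (MI k) F)) →
      (∀ z : F, (x : Matrix (MI k) (MI k) F) ≠ z • (1 : Matrix (MI k) (MI k) F)) →
      ∃ W : Submodule F (MI k → F),
        (Module.finrank F ↥W = m ∧
          Cfsg.Geo.IsTotallySingularQuad (Cfsg.quadFormMinus k F a b) W) ∧
        W.map (Matrix.toLin' (x : Matrix (MI k) (MI k) F)) ≤ W) ↔
      (∀ x : GL (MI k) F, x ∈ Cfsg.Geo.omegaGL (Cfsg.quadFormMinus k F a b) →
        (∃ z : F, ((x ^ r : GL (MI k) F) : Matrix (MI k) (MI k) F) =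
          z • (1 : Matrix (MI k) (MI k) F)) →
        (∀ z : F, (x : Matrix (MI k) (MI k) F) ≠ z • (1 : Matrix (MI k) (MI k) F)) →
        FixTS (Cfsg.quadFormMinus k F a b) m (x : Matrix (MI k) (MI k) F)) := by
    refine forall_congr' fun x => ?_
    refine imp_congr Iff.rfl (imp_congr Iff.rfl (imp_congr Iff.rfl ?_))
    exact fixTS_iffM _ _ _
  refine hL.trans (hred.trans ?_)
  rcases Nat.even_or_odd i with hie | hio
  · -- i even
    have hi2 : 2 ≤ i := by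
      obtain ⟨u, hu⟩ := hie
      omega
    have hc' : c = i := by rw [hc, if_pos hie]
    have hev := hEven F k m r a b hab hrp hr2 hndvd (by rw [← hi']; exact hie)
    rw [← hi'] at hev
    refine hev.trans ?_
    by_cases him : i ≤ m
    · have hnum := hNumEv1 i m (k + 1) ((r - 1) / i) hie hi2 him (by omega) ht1
      refine hnum.trans ?_
      rw [hc']
      constructor
      · rintro ⟨h1, h2⟩
        exact Or.inr (Or.inr ⟨hrp', hr3, hie, him, h1, h2⟩)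
      · rintro (⟨h1, -⟩ | ⟨-, -, h1, -⟩ | ⟨-, -, -, -, h1, h2⟩)
        · exact absurd h1 hr2
        · exact absurd hie (Nat.not_even_iff_odd.mpr h1)
        · exact ⟨h1, h2⟩
    · have hmi : m < i := not_le.mp him
      have hno : ¬ AllEvM i m (k + 1) ((r - 1) / i) := by
        apply hNumEv2 i m (k + 1) ((r - 1) / i) hie hi2 hm hmi (by omega) ht1
        rcases hdv with h | h
        · exact Or.inr ⟨k + 1 - j0, by omega, by omega, (ho2 _ h).2⟩
        · exact Or.inl ⟨k - j0, by omega, by omega, ho1 _ h⟩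
      constructor
      · intro h
        exact absurd h hno
      · rintro (⟨h1, -⟩ | ⟨-, -, h1, -⟩ | ⟨-, -, -, h1, -⟩)
        · exact absurd h1 hr2
        · exact absurd hie (Nat.not_even_iff_odd.mpr h1)
        · exact absurd h1 him
  · -- i odd
    have hc' : c = 2 * i := by rw [hc, if_neg (Nat.not_even_iff_odd.mpr hio)]
    have hod := hOdd F k m r a b hab hrp hr2 hndvd (by rw [← hi']; exact hio)
    rw [← hi'] at hod
    refine hod.trans ?_
    by_cases him : i ≤ m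
    · have hnum := hNumOd1 i m (k + 1) hi1 him (by omega)
      refine hnum.trans ?_
      rw [hc']
      constructor
      · intro h1
        exact Or.inr (Or.inl ⟨hrp', hr3, hio, him, h1⟩)
      · rintro (⟨h1, -⟩ | ⟨-, -, -, -, h1⟩ | ⟨-, -, h1, -⟩)
        · exact absurd h1 hr2
        · exact h1
        · exact absurd h1 (Nat.not_even_iff_odd.mpr hio)
    · have hmi : m < i := not_le.mp him
      have hno : ¬ AllOddM i m (k + 1) := by
        rcases hdv with h | h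
        · exact absurd (ho2 _ h).1 (Nat.not_even_iff_odd.mpr hio)
        · exact hNumOd2 i m (k + 1) (k - j0) hi1 hm hmi (by omega) (by omega) (by omega)
            (ho1 _ h)
      constructor
      · intro h
        exact absurd h hno
      · rintro (⟨h1, -⟩ | ⟨-, -, -, h1, -⟩ | ⟨-, -, h1, -⟩)
        · exact absurd h1 hr2
        · exact absurd h1 him
        · exact absurd h1 (Nat.not_even_iff_odd.mpr hio)

end Cfsg.Agent.Lib.Helper31.OTSM
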