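-- Team project OTSM (S5987): minus-type orthogonal groups and totally singular m-spaces.
-- Interface file of the r = 2 slice "TWOM" (helper31): package statements and the target.
import Mathlib
import Cfsg.Prelude.Def_GeometricClasses
import Cfsg.Prelude.Def_Classical
import Cfsg.Agent.Lib.Helper23.OHyp.Defs
import Cfsg.Agent.Lib.Helper64.OParM.Defs

set_option autoImplicit false
open scoped MatrixGroups
open Matrix

namespace Cfsg.Agent.Lib.Helper31.OTSM

open Cfsg.Agent.Lib.Helper23.OHyp Cfsg.Agent.Lib.Helper64.OParM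

universe u

/-- An invariant totally singular `m`-space of the matrix `X` for the form `Q`. -/
def HasTS {F : Type u} [Field F] {ι : Type} [Fintype ι] [DecidableEq ι]
    (Q : (ι → F) → F) (m : ℕ) (X : Matrix ι ι F) : Prop :=
  ∃ W : Submodule F (ι → F), Module.finrank F ↥W = m ∧ (∀ w ∈ W, Q w = 0) ∧
    W.map (Matrix.toLin' X) ≤ W

/-- **[INVM]** (form-generic) in a nondegenerate quadratic space of even dimension `2 D` that is
NOT of plus type, every involutory isometry has invariant totally singular `m`-spaces for all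
`m ≤ D - 1`. -/
def PkgInvM : Prop :=
  ∀ (F : Type u) [Field F] [Fintype F] (ι : Type) [Fintype ι] [DecidableEq ι]
    (Q : (ι → F) → F), Cfsg.Geo.IsNondegenerateQuadraticForm Q → (2 : F) ≠ 0 →
    ¬ Plus Q ⊤ → Even (Fintype.card ι) →
    ∀ X : Matrix ι ι F, (∀ v, Q (X *ᵥ v) = Q v) → X * X = 1 →
    ∀ m : ℕ, 2 * m + 2 ≤ Fintype.card ι → HasTS Q m X

/-- **[NEGBM]** (form-generic) `q ≡ 3 (mod 4)`: an isometry with square `-1` has invariant
totally singular `m`-spaces for all even `m` with `2 m + 2 ≤ dim`. -/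
def PkgNegBM : Prop :=
  ∀ (F : Type u) [Field F] [Fintype F] (ι : Type) [Fintype ι] [DecidableEq ι]
    (Q : (ι → F) → F), Cfsg.Geo.IsNondegenerateQuadraticForm Q → Fintype.card F % 4 = 3 →
    ∀ X : Matrix ι ι F, (∀ v, Q (X *ᵥ v) = Q v) → X * X = -1 →
    ∀ m : ℕ, Even m → 2 * m + 2 ≤ Fintype.card ι → HasTS Q m X

/-- **[EVENM]** `q ≡ 3 (mod 4)`: invariant subspaces of a matrix with square `-1` have even
dimension (same statement as helper37's TWOP `PkgEven`). -/
def PkgEvenM : Prop :=
  ∀ (F : Type u) [Field F] [Fintype F] (ι : Type) [Fintype ι] [DecidableEq ι],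
    Fintype.card F % 4 = 3 → ∀ X : Matrix ι ι F, X * X = -1 →
    ∀ W : Submodule F (ι → F), W.map (Matrix.toLin' X) ≤ W → Even (Module.finrank F ↥W)

/-- **[NOTPLUS]** the minus form is not of plus type (any characteristic): no totally singular
subspace of dimension `k + 1`. -/
def PkgNotPlus : Prop :=
  ∀ (F : Type u) [Field F] [Fintype F] (k : ℕ) (a b : F), Aniso a b →
    ¬ Plus (Cfsg.quadFormMinus k F a b) ⊤

/-- The target: the `r = 2` slice of S5987 (`d = k + 1`). -/
def TwoMinus : Prop :=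
  ∀ (F : Type u) [Field F] [Fintype F] (k m : ℕ) (a b : F), Odd (Fintype.card F) → Aniso a b →
    1 ≤ m → m ≤ k →
    ((∀ x : GL (MI k) F, x ∈ Cfsg.Geo.omegaGL (Cfsg.quadFormMinus k F a b) →
      (∃ z : F, ((x ^ 2 : GL (MI k) F) : Matrix (MI k) (MI k) F) =
        z • (1 : Matrix (MI k) (MI k) F)) →
      (∀ z : F, (x : Matrix (MI k) (MI k) F) ≠ z • (1 : Matrix (MI k) (MI k) F)) →
      ∃ W : Submodule F (MI k → F),
        (Module.finrank F ↥W = m ∧
          Cfsg.Geo.IsTotallySingularQuad (Cfsg.quadFormMinus k F a b) W) ∧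
        W.map (Matrix.toLin' (x : Matrix (MI k) (MI k) F)) ≤ W) ↔
    (Even (k + 1) ∨ Even m ∨ Fintype.card F % 8 ≠ 7))

end Cfsg.Agent.Lib.Helper31.OTSM
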