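-- OTSM / TWOM: assembly of the r = 2 slice of S5987 from the packages (helper31).
import Mathlib
import Cfsg.Agent.Lib.Helper31.OTSM.TwoDefs
import Cfsg.Agent.Lib.Helper45.OPar.Scal
import Cfsg.Agent.Lib.Helper92.OPar.Om2Minus
import Cfsg.Agent.Lib.Helper54.OHyp.EBlkEven
import Cfsg.Agent.Lib.Helper14.Isom

set_option autoImplicit false
open scoped MatrixGroups
open Matrix

namespace Cfsg.Agent.Lib.Helper31.OTSM

open Cfsg.Agent.Lib.Helper23.OHyp Cfsg.Agent.Lib.Helper64.OParM

universe u

theorem aniso_disc {F : Type u} [Field F] (h2 : (2 : F) ≠ 0) {a b : F} (hab : Aniso a b) :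
    4 * b - a ^ 2 ≠ 0 := by
  intro h
  have h1 := hab a (-2) (by linear_combination h)
  exact h2 (by linear_combination -h1.2)

theorem twoMinus_of (hInv : PkgInvM.{u}) (hNegB : PkgNegBM.{u}) (hEven : PkgEvenM.{u})
    (hNP : PkgNotPlus.{u}) (hOm1 : PkgOm1M.{u}) : TwoMinus.{u} := by
  intro F _ _ k m a b hodd hab hm hmk
  classical
  have h2 : (2 : F) ≠ 0 := Cfsg.Agent.Lib.Helper73.PG.two_ne_zero_of_odd F hodd
  have hQ : Cfsg.Geo.IsNondegenerateQuadraticForm (Cfsg.quadFormMinus k F a b) :=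
    Cfsg.Agent.Lib.Helper54.OHyp.quadFormMinus_nondeg h2 k a b (aniso_disc h2 hab)
  have hcard : Fintype.card (MI k) = 2 * k + 2 := by
    simp [MI]; ring
  have : Nonempty (MI k) := ⟨Sum.inr 0⟩
  constructor
  · intro H
    by_contra hcon
    rw [not_or, not_or] at hcon
    obtain ⟨hk1, hmo, hq8⟩ := hcon
    have hq7 : Fintype.card F % 8 = 7 := by omega
    have hke : Even k := by
      rcases Nat.even_or_odd k with h | ⟨j, hj⟩
      · exact h
      · exfalso; apply hk1; exact ⟨j + 1, by omega⟩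
    obtain ⟨x, hxΩ, hxx⟩ := hOm1 F hq7 k hke a b hab
    have hns : ¬ IsSquare (-1 : F) := by
      rw [FiniteField.isSquare_neg_one_iff]
      omega
    have h5 : ∀ z : F, (x : Matrix (MI k) (MI k) F) ≠ z • (1 : Matrix (MI k) (MI k) F) := by
      intro z hz
      rw [hz] at hxx
      apply hns
      refine ⟨z, ?_⟩
      have h6 := congrFun (congrFun hxx (Sum.inr 0)) (Sum.inr 0)
      simp at h6
      exact h6.symm
    obtain ⟨W, ⟨hWm, _⟩, hWinv⟩ := H x hxΩ
      ⟨-1, by rw [pow_two, Units.val_mul, hxx, neg_smul, one_smul]⟩ h5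
    exact hmo (hWm ▸ hEven F (MI k) (by omega) _ hxx W hWinv)
  · intro hcond x hxΩ hz hxns
    obtain ⟨z, hz⟩ := hz
    obtain ⟨g, hg, hgx⟩ := Subgroup.mem_map.mp hxΩ
    have hgX : ((g : GL (MI k) F) : Matrix (MI k) (MI k) F) =
        (x : Matrix (MI k) (MI k) F) := by
      rw [← hgx]; rfl
    have hisom : ∀ v, Cfsg.quadFormMinus k F a b
        ((x : Matrix (MI k) (MI k) F) *ᵥ v) = Cfsg.quadFormMinus k F a b v :=
      fun v => by
        rw [← hgX]; exact Cfsg.Agent.Lib.Helper14.isom_preserves g v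
    have hXX : (x : Matrix (MI k) (MI k) F) * (x : Matrix (MI k) (MI k) F) =
        z • (1 : Matrix (MI k) (MI k) F) := by
      rw [← hz, pow_two, Units.val_mul]
    have hzz : z * z = 1 :=
      Cfsg.Agent.Lib.Helper45.OPar.pkgScal F (MI k) (Cfsg.quadFormMinus k F a b) hQ z
        (fun v => by rw [← hXX, ← mulVec_mulVec, hisom, hisom])
    have hTS : HasTS (Cfsg.quadFormMinus k F a b) m (x : Matrix (MI k) (MI k) F) := by
      rcases mul_self_eq_one_iff.1 hzz with rfl | rfl
      · rw [one_smul] at hXX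
        exact hInv F (MI k) _ hQ h2 (hNP F k a b hab) ⟨k + 1, by omega⟩ _ hisom hXX m
          (by omega)
      · have hXX' : (x : Matrix (MI k) (MI k) F) * (x : Matrix (MI k) (MI k) F) = -1 := by
          rw [hXX, neg_smul, one_smul]
        have hA : ¬ (Even (k + 1) ∨ Fintype.card F % 4 = 1) := fun h =>
          Cfsg.Agent.Lib.Helper92.OPar.no_isometry_sq_neg_one_minus hodd k a b hab h _ hisom hXX'
        rw [not_or] at hA
        have hko : Odd (k + 1) := Nat.not_even_iff_odd.mp hA.1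
        have hq3 : Fintype.card F % 4 = 3 := by
          obtain ⟨j, hj⟩ := hodd
          omega
        have hq83 : Fintype.card F % 8 ≠ 3 := fun h =>
          Cfsg.Agent.Lib.Helper92.OPar.no_omega_sq_neg_one_minus h k a b hab hko x hxΩ hXX'
        have hme : Even m := by
          rcases hcond with h | h | h
          · exact absurd h hA.1
          · exact h
          · exfalso; omega
        exact hNegB F (MI k) _ hQ hq3 _ hisom hXX' m hme (by omega)
    obtain ⟨W, hW1, hW2, hW3⟩ := hTS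
    exact ⟨W, ⟨hW1, hW2⟩, hW3⟩

end Cfsg.Agent.Lib.Helper31.OTSM
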