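-- OTSM (S5987): the count packages [PCNTM], [DVDM] as wrappers of helper67's CountMinus, and
-- the r = 2 slice TwoMinus from the landed TWOM packages (helper31).
import Mathlib
import Cfsg.Agent.Lib.Helper31.OTSM.Defs
import Cfsg.Agent.Lib.Helper31.OTSM.TwoAsm
import Cfsg.Agent.Lib.Helper67.OTS.CountMinus
import Cfsg.Agent.Lib.Helper37.OTSM.InvM
import Cfsg.Agent.Lib.Helper37.OTSM.NegBM
import Cfsg.Agent.Lib.Helper37.OTSM.EvenM
import Cfsg.Agent.Lib.Helper52.OTSM.NotPlus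
import Cfsg.Agent.Lib.Helper92.OParM.Om1M

set_option autoImplicit false
open scoped MatrixGroups
open Matrix

namespace Cfsg.Agent.Lib.Helper31.OTSM

open Cfsg.Agent.Lib.Helper23.OHyp Cfsg.Agent.Lib.Helper64.OParM Cfsg.Agent.Lib.Helper99.OTSP

universe u

theorem pkgPCntM : PkgPCntM.{u} := by
  intro F _ _ p _ _ k m a b hab hmk
  exact Cfsg.Agent.Lib.Helper67.OTS.pcountM p k m hmk a b hab

theorem pkgDvdM : PkgDvdM.{u} := by
  intro F _ _ k m r a b hab hr hmk h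
  obtain ⟨j, hj, h1⟩ := Cfsg.Agent.Lib.Helper67.OTS.dvdM r hr k m hmk a b hab h
  refine ⟨j, hj, ?_⟩
  have e : k - j + 1 = k + 1 - j := by omega
  rw [← e]
  exact h1

theorem twoMinus : TwoMinus.{u} :=
  twoMinus_of Cfsg.Agent.Lib.Helper37.OTSM.pkgInvM Cfsg.Agent.Lib.Helper37.OTSM.pkgNegBM
    Cfsg.Agent.Lib.Helper37.OTSM.pkgEvenM Cfsg.Agent.Lib.Helper52.OTSM.pkgNotPlus
    Cfsg.Agent.Lib.Helper92.OParM.pkgOm1M

end Cfsg.Agent.Lib.Helper31.OTSM
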