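-- Team project OTSM (S5987): collection of the landed packages (helper31).  Everything except
-- [SPREADM] is instantiated here; `pkgAllEvM_of_spread` takes [SPREADM] as its only hypothesis.
import Mathlib
import Cfsg.Agent.Lib.Helper31.OTSM.Asm
import Cfsg.Agent.Lib.Helper31.OTSM.Wrap
import Cfsg.Agent.Lib.Helper34.OTSP.Split
import Cfsg.Agent.Lib.Helper34.OTSP.DimI
import Cfsg.Agent.Lib.Helper53.OTSP.Ord
import Cfsg.Agent.Lib.Helper67.OTSP.TypeW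
import Cfsg.Agent.Lib.Helper67.OTSP.ZCnt
import Cfsg.Agent.Lib.Helper67.OTSP.PairC
import Cfsg.Agent.Lib.Helper87.OTSP.ExOdd
import Cfsg.Agent.Lib.Helper87.OTSP.Aniso
import Cfsg.Agent.Lib.Helper87.OTSP.TiTs
import Cfsg.Agent.Lib.Helper94.OTSP.TsBd
import Cfsg.Agent.Lib.Helper94.OTSP.NHyp
import Cfsg.Agent.Lib.Helper61.OTSP.Prim
import Cfsg.Agent.Lib.Helper99.OTSP.Pairs
import Cfsg.Agent.Lib.Helper94.OTSM.FixOddM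
import Cfsg.Agent.Lib.Helper94.OTSM.FixEvM
import Cfsg.Agent.Lib.Helper61.OTSM.AllEvM
import Cfsg.Agent.Lib.Helper62.OTSM.AllOddM
import Cfsg.Agent.Lib.Helper38.OTSM.ExOddM
import Cfsg.Agent.Lib.Helper46.OTSM.RedM
import Cfsg.Agent.Lib.Helper46.OTSM.MinusNdF
import Cfsg.Agent.Lib.Helper68.OTSM.NumOd
import Cfsg.Agent.Lib.Helper97.OTSM.NumEv2M
import Cfsg.Agent.Lib.Helper65.OTSM.NumEv1M
import Cfsg.Agent.Lib.Helper37.OTSM.WCMb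

set_option autoImplicit false
open scoped MatrixGroups
open Matrix

namespace Cfsg.Agent.Lib.Helper31.OTSM

universe u

theorem allOddM : Cfsg.Agent.Lib.Helper31.OTSM.PkgAllOddM.{u} :=
  Cfsg.Agent.Lib.Helper62.OTSM.pkgAllOddM_of Cfsg.Agent.Lib.Helper46.OTSM.pkgMinusNdF
    Cfsg.Agent.Lib.Helper52.OTSM.pkgNotPlus
    (Cfsg.Agent.Lib.Helper94.OTSM.pkgFixOddM_of Cfsg.Agent.Lib.Helper34.OTSP.pkgSplit
      Cfsg.Agent.Lib.Helper34.OTSP.pkgDimI Cfsg.Agent.Lib.Helper34.OTSP.pkgSubI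
      Cfsg.Agent.Lib.Helper94.OTSP.pkgTsBd
      (Cfsg.Agent.Lib.Helper94.OTSP.pkgNHyp_of Cfsg.Agent.Lib.Helper34.OTSP.pkgSplit)
      Cfsg.Agent.Lib.Helper37.OTSM.pkgWCMa)
    (Cfsg.Agent.Lib.Helper38.OTSM.pkgExOddM_of Cfsg.Agent.Lib.Helper87.OTSP.pkgExOdd)

theorem otspPairs : Cfsg.Agent.Lib.Helper99.OTSP.PkgPairs.{u} :=
  Cfsg.Agent.Lib.Helper99.OTSP.pkgPairs_of
    (Cfsg.Agent.Lib.Helper87.OTSP.pkgAniso_of Cfsg.Agent.Lib.Helper34.OTSP.pkgSplit)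
    (Cfsg.Agent.Lib.Helper61.OTSP.pkgPrim_of Cfsg.Agent.Lib.Helper34.OTSP.pkgDimI
      Cfsg.Agent.Lib.Helper34.OTSP.pkgSubI)
    (Cfsg.Agent.Lib.Helper67.OTSP.pkgPairC_of Cfsg.Agent.Lib.Helper67.OTSP.pkgTypeW
      Cfsg.Agent.Lib.Helper67.OTSP.pkgZCnt
      (Cfsg.Agent.Lib.Helper87.OTSP.pkgTiTs_of Cfsg.Agent.Lib.Helper34.OTSP.pkgSplit)
      Cfsg.Agent.Lib.Helper34.OTSP.pkgDimI)
    (Cfsg.Agent.Lib.Helper87.OTSP.pkgTiTs_of Cfsg.Agent.Lib.Helper34.OTSP.pkgSplit)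
    Cfsg.Agent.Lib.Helper34.OTSP.pkgSubI Cfsg.Agent.Lib.Helper34.OTSP.pkgDimI
    Cfsg.Agent.Lib.Helper53.OTSP.pkgOrd

theorem allEvM_of_spread (hSp : Cfsg.Agent.Lib.Helper31.OTSM.PkgSpreadM.{u}) :
    Cfsg.Agent.Lib.Helper31.OTSM.PkgAllEvM.{u} :=
  Cfsg.Agent.Lib.Helper61.OTSM.pkgAllEvM_of Cfsg.Agent.Lib.Helper46.OTSM.pkgMinusNdF
    Cfsg.Agent.Lib.Helper52.OTSM.pkgNotPlus
    (Cfsg.Agent.Lib.Helper94.OTSM.pkgFixEvM_of Cfsg.Agent.Lib.Helper34.OTSP.pkgSplit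
      Cfsg.Agent.Lib.Helper34.OTSP.pkgDimI Cfsg.Agent.Lib.Helper94.OTSP.pkgTsBd
      (Cfsg.Agent.Lib.Helper67.OTSP.pkgTypeN_of Cfsg.Agent.Lib.Helper34.OTSP.pkgSplit)
      Cfsg.Agent.Lib.Helper37.OTSM.pkgWCMa Cfsg.Agent.Lib.Helper37.OTSM.pkgWCMb)
    otspPairs hSp

end Cfsg.Agent.Lib.Helper31.OTSM
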